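import Mathlib
import Cfsg.Agent.ClassicalGeometry.AutPSL.SylowU

/-!
# `PSL₃(F)` in matrices: the overgroups of the Borel subgroup (helper265, for S4114)

`SL = SL₃(F)`, `um s t z` the unitriangular matrices. A proper subgroup of `PSL₃(F)` containing (the image of) the upper
triangular matrices properly is one of the two maximal parabolic subgroups.
-/

set_option autoImplicit false
set_option linter.unusedSectionVars false
set_option linter.unusedSimpArgs false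

namespace Cfsg.Agent.H265.LQ

open Matrix Subgroup
open Cfsg.Agent.ClassicalGeometry.AutPSL.Root
open Cfsg.Agent.ClassicalGeometry.AutPSL.SylowU

variable {F : Type*} [Field F]

local notation "SL" => Matrix.SpecialLinearGroup (Fin 3) F

/-- the unitriangular matrices -/
def um (s t z : F) : Matrix.SpecialLinearGroup (Fin 3) F :=
  ⟨!![1, s, z; 0, 1, t; 0, 0, 1], by simp [Matrix.det_fin_three]⟩

/-- a matrix of determinant one -/
def mk (A : Matrix (Fin 3) (Fin 3) F) (h : A.det = 1) : Matrix.SpecialLinearGroup (Fin 3) F := ⟨A, h⟩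

theorem mk_val (A : Matrix (Fin 3) (Fin 3) F) (h : A.det = 1) : (mk A h).1 = A := rfl

theorem ext3 {g h : SL} (h00 : g.1 0 0 = h.1 0 0) (h01 : g.1 0 1 = h.1 0 1) (h02 : g.1 0 2 = h.1 0 2)
    (h10 : g.1 1 0 = h.1 1 0) (h11 : g.1 1 1 = h.1 1 1) (h12 : g.1 1 2 = h.1 1 2)
    (h20 : g.1 2 0 = h.1 2 0) (h21 : g.1 2 1 = h.1 2 1) (h22 : g.1 2 2 = h.1 2 2) : g = h := by
  apply Subtype.ext
  ext i j
  fin_cases i <;> fin_cases j <;> assumption

theorem mul_apply3 (g h : SL) (i j : Fin 3) :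
    (g * h).1 i j = g.1 i 0 * h.1 0 j + g.1 i 1 * h.1 1 j + g.1 i 2 * h.1 2 j := by
  rw [show (g * h).1 = g.1 * h.1 from rfl, Matrix.mul_apply, Fin.sum_univ_three]

theorem um_mul (s t z s' t' z' : F) : um s t z * um s' t' z' = um (s + s') (t + t') (z + z' + s * t') := by
  apply ext3 <;> rw [mul_apply3] <;> simp [um] <;> ring

theorem um_mul0 (s t z : F) (g : SL) (j : Fin 3) : (um s t z * g).1 0 j = g.1 0 j + s * g.1 1 j + z * g.1 2 j := by
  rw [mul_apply3]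
  simp [um]

theorem um_mul1 (s t z : F) (g : SL) (j : Fin 3) : (um s t z * g).1 1 j = g.1 1 j + t * g.1 2 j := by
  rw [mul_apply3]
  simp [um]

theorem um_mul2 (s t z : F) (g : SL) (j : Fin 3) : (um s t z * g).1 2 j = g.1 2 j := by
  rw [mul_apply3]
  simp [um]

theorem um_zero : (um 0 0 0 : SL) = 1 := by
  apply ext3 <;> simp [um]

theorem um_inv (s t z : F) : (um s t z)⁻¹ = um (-s) (-t) (s * t - z) := by
  rw [inv_eq_iff_mul_eq_one, um_mul, ← um_zero]
  congr 1 <;> ring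

theorem mem_upper_iff [Finite F] {g : SL} : g ∈ upper 3 F ↔ ∃ s t z, g = um s t z := by
  rw [mem_upper]
  constructor
  · intro h
    refine ⟨g.1 0 1, g.1 1 2, g.1 0 2, ?_⟩
    have h00 := h 0 0 le_rfl
    have h11 := h 1 1 le_rfl
    have h22 := h 2 2 le_rfl
    have h10 := h 1 0 (by decide)
    have h20 := h 2 0 (by decide)
    have h21 := h 2 1 (by decide)
    simp only [if_true, Fin.reduceEq, if_false] at h00 h11 h22 h10 h20 h21
    apply ext3 <;> simp [um, h00, h11, h22, h10, h20, h21]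
  · rintro ⟨s, t, z, rfl⟩ i j hij
    fin_cases i <;> fin_cases j <;> first | (exact absurd hij (by decide)) | simp [um]

/-- upper triangular -/
def IsT (g : SL) : Prop := g.1 1 0 = 0 ∧ g.1 2 0 = 0 ∧ g.1 2 1 = 0

/-- the stabiliser of a point -/
def IsP (g : SL) : Prop := g.1 1 0 = 0 ∧ g.1 2 0 = 0

/-- the stabiliser of a line -/
def IsL (g : SL) : Prop := g.1 2 0 = 0 ∧ g.1 2 1 = 0

theorem inv3 (g : SL) : (g⁻¹).1 = !![g.1 1 1 * g.1 2 2 - g.1 1 2 * g.1 2 1,
      -(g.1 0 1 * g.1 2 2) + g.1 0 2 * g.1 2 1, g.1 0 1 * g.1 1 2 - g.1 0 2 * g.1 1 1;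
    -(g.1 1 0 * g.1 2 2) + g.1 1 2 * g.1 2 0, g.1 0 0 * g.1 2 2 - g.1 0 2 * g.1 2 0,
      -(g.1 0 0 * g.1 1 2) + g.1 0 2 * g.1 1 0;
    g.1 1 0 * g.1 2 1 - g.1 1 1 * g.1 2 0, -(g.1 0 0 * g.1 2 1) + g.1 0 1 * g.1 2 0,
      g.1 0 0 * g.1 1 1 - g.1 0 1 * g.1 1 0] := by
  have h : (g⁻¹).1 = Matrix.adjugate g.1 := Matrix.SpecialLinearGroup.coe_inv g
  rw [h, Matrix.adjugate_fin_three]

theorem det3 (g : SL) : g.1 0 0 * g.1 1 1 * g.1 2 2 - g.1 0 0 * g.1 1 2 * g.1 2 1 - g.1 0 1 * g.1 1 0 * g.1 2 2 +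
    g.1 0 1 * g.1 1 2 * g.1 2 0 + g.1 0 2 * g.1 1 0 * g.1 2 1 - g.1 0 2 * g.1 1 1 * g.1 2 0 = 1 := by
  have := g.2
  rw [Matrix.det_fin_three] at this
  exact this

section sub

variable {M : Subgroup (Matrix.SpecialLinearGroup (Fin 3) F)}

theorem isT_um (s t z : F) : IsT (um s t z : SL) := by simp [IsT, um]

/-- `P ≤ M` as soon as `M` contains an element of `P \ T` -/
theorem le_of_point (hT : ∀ g, IsT g → g ∈ M) {g : SL} (hg : g ∈ M) (h10 : g.1 1 0 = 0) (h20 : g.1 2 0 = 0)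
    (h21 : g.1 2 1 ≠ 0) {h : SL} (hh : IsP h) : h ∈ M := by
  obtain ⟨k10, k20⟩ := hh
  by_cases hz : h.1 2 1 = 0
  · exact hT h ⟨k10, k20, hz⟩
  · set t := h.1 1 1 / h.1 2 1 - g.1 1 1 / g.1 2 1 with ht
    have hA : um 0 t 0 ∈ M := hT _ (isT_um _ _ _)
    have hk : (um 0 t 0 * g)⁻¹ * h ∈ M := by
      apply hT
      refine ⟨?_, ?_, ?_⟩
      · rw [mul_apply3, inv3]
        simp [um_mul0, um_mul1, um_mul2, h10, h20, k10, k20]
      · rw [mul_apply3, inv3]
        simp [um_mul0, um_mul1, um_mul2, h10, h20, k10, k20]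
      · rw [mul_apply3, inv3]
        simp [um_mul0, um_mul1, um_mul2, h10, h20, k10, k20]
        rw [ht]
        field_simp
        ring
    have h1 := M.mul_mem (M.mul_mem hA hg) hk
    rwa [mul_inv_cancel_left] at h1

theorem le_of_line (hT : ∀ g, IsT g → g ∈ M) {g : SL} (hg : g ∈ M) (h20 : g.1 2 0 = 0) (h21 : g.1 2 1 = 0)
    (h10 : g.1 1 0 ≠ 0) {h : SL} (hh : IsL h) : h ∈ M := by
  obtain ⟨k20, k21⟩ := hh
  by_cases hz : h.1 1 0 = 0
  · exact hT h ⟨hz, k20, k21⟩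
  · set t := h.1 0 0 / h.1 1 0 - g.1 0 0 / g.1 1 0 with ht
    have hA : um t 0 0 ∈ M := hT _ (isT_um _ _ _)
    have hk : (um t 0 0 * g)⁻¹ * h ∈ M := by
      apply hT
      refine ⟨?_, ?_, ?_⟩
      · rw [mul_apply3, inv3]
        simp [um_mul0, um_mul1, um_mul2, h20, h21, k20, k21]
        rw [ht]
        field_simp
        ring
      · rw [mul_apply3, inv3]
        simp [um_mul0, um_mul1, um_mul2, h20, h21, k20, k21]
      · rw [mul_apply3, inv3]
        simp [um_mul0, um_mul1, um_mul2, h20, h21, k20, k21]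
    have h1 := M.mul_mem (M.mul_mem hA hg) hk
    rwa [mul_inv_cancel_left] at h1

/-- moving a vector to the last basis vector -/
theorem exists_move (h : SL) (hh : ¬ IsP h) : ∃ A : SL, IsP A ∧ (A * h).1 0 0 = 0 ∧ (A * h).1 1 0 = 0 ∧
    (A * h).1 2 0 = 1 := by
  by_cases h2 : h.1 2 0 = 0
  · have h1 : h.1 1 0 ≠ 0 := fun h1 => hh ⟨h1, h2⟩
    refine ⟨mk !![1, -h.1 0 0 / h.1 1 0, 0; 0, 0, -h.1 1 0; 0, 1 / h.1 1 0, 0] ?_, ?_, ?_, ?_, ?_⟩
    · simp [Matrix.det_fin_three]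
      field_simp
    · simp [IsP, mk_val]
    · rw [mul_apply3, mk_val]
      simp
      field_simp
      simp
    · rw [mul_apply3, mk_val]
      simp [h2]
    · rw [mul_apply3, mk_val]
      simp [h2]
      field_simp
  · refine ⟨mk !![1, 0, -h.1 0 0 / h.1 2 0; 0, h.1 2 0, -h.1 1 0; 0, 0, 1 / h.1 2 0] ?_, ?_, ?_, ?_, ?_⟩
    · simp [Matrix.det_fin_three]
      field_simp
    · simp [IsP, mk_val]
    · rw [mul_apply3, mk_val]
      simp
      field_simp
      ring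
    · rw [mul_apply3, mk_val]
      simp
      ring
    · rw [mul_apply3, mk_val]
      simp
      field_simp

/-- `M` is everything as soon as it contains `P` properly -/
theorem mem_of_point (hP : ∀ g, IsP g → g ∈ M) {g : SL} (hg : g ∈ M) (hn : ¬ IsP g) (h : SL) : h ∈ M := by
  by_cases hh : IsP h
  · exact hP h hh
  · obtain ⟨A, hA, a0, a1, a2⟩ := exists_move g hn
    obtain ⟨B, hB, b0, b1, b2⟩ := exists_move h hh
    have hk : (A * g)⁻¹ * (B * h) ∈ M := by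
      apply hP
      have h1 : ∀ i, ((A * g)⁻¹ * (B * h)).1 i 0 = ((A * g)⁻¹ * (A * g)).1 i 0 := by
        intro i
        rw [mul_apply3, mul_apply3 (A * g)⁻¹ (A * g), a0, a1, a2, b0, b1, b2]
      refine ⟨?_, ?_⟩
      · rw [h1, inv_mul_cancel]
        rfl
      · rw [h1, inv_mul_cancel]
        rfl
    have h1 := M.mul_mem (M.mul_mem (hP A hA) hg) hk
    rw [mul_inv_cancel_left] at h1
    have h2 := M.mul_mem (M.inv_mem (hP B hB)) h1
    rwa [inv_mul_cancel_left] at h2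

/-- an element with a nonzero corner gives everything -/
theorem mem_of_corner (hT : ∀ g, IsT g → g ∈ M) {g : SL} (hg : g ∈ M) (h20 : g.1 2 0 ≠ 0) (h : SL) : h ∈ M := by
  let y : SL := mk !![1, g.1 0 0 * g.1 2 0, -(g.1 0 0 * g.1 1 0);
      0, 1 + g.1 1 0 * g.1 2 0, -(g.1 1 0 * g.1 1 0); 0, g.1 2 0 * g.1 2 0, 1 - g.1 2 0 * g.1 1 0] (by
    rw [Matrix.det_fin_three]
    simp
    ring)
  have hy : g * um (g.1 2 0 * g.1 1 1 - g.1 1 0 * g.1 2 1) 0 (g.1 2 0 * g.1 1 2 - g.1 1 0 * g.1 2 2) = y * g := by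
    apply ext3 <;> rw [mul_apply3, mul_apply3] <;> simp [um, y, mk_val] <;> ring
  have hyM : y ∈ M := by
    have h1 := M.mul_mem (M.mul_mem hg (hT _ (isT_um (g.1 2 0 * g.1 1 1 - g.1 1 0 * g.1 2 1) 0
      (g.1 2 0 * g.1 1 2 - g.1 1 0 * g.1 2 2)))) (M.inv_mem hg)
    rwa [hy, mul_inv_cancel_right] at h1
  refine mem_of_point (fun k hk => le_of_point hT hyM ?_ ?_ ?_ hk) hg ?_ h
  · simp [y, mk_val]
  · simp [y, mk_val]
  · simpa [y, mk_val] using h20
  · intro hn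
    exact h20 hn.2

/-- the overgroups of the upper triangular matrices -/
theorem overgroup (hT : ∀ g, IsT g → g ∈ M) (hne : ∃ g ∈ M, ¬ IsT g) (htop : ∃ g, g ∉ M) :
    (∀ g, g ∈ M ↔ IsP g) ∨ (∀ g, g ∈ M ↔ IsL g) := by
  have h20 : ∀ g ∈ M, g.1 2 0 = 0 := by
    intro g hg
    by_contra h
    obtain ⟨k, hk⟩ := htop
    exact hk (mem_of_corner hT hg h k)
  obtain ⟨g, hg, hgT⟩ := hne
  by_cases h10 : g.1 1 0 = 0
  · have h21 : g.1 2 1 ≠ 0 := fun h => hgT ⟨h10, h20 g hg, h⟩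
    left
    intro k
    refine ⟨fun hk => ⟨?_, h20 k hk⟩, fun hk => le_of_point hT hg h10 (h20 g hg) h21 hk⟩
    have h1 := h20 _ (M.mul_mem hg hk)
    rw [mul_apply3, h20 g hg, h20 k hk, zero_mul, mul_zero, add_zero, zero_add] at h1
    exact (mul_eq_zero.1 h1).resolve_left h21
  · right
    have h21 : ∀ k ∈ M, k.1 2 1 = 0 := by
      intro k hk
      have h1 := h20 _ (M.mul_mem hk hg)
      rw [mul_apply3, h20 g hg, h20 k hk, zero_mul, mul_zero, add_zero, zero_add] at h1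
      exact (mul_eq_zero.1 h1).resolve_right h10
    intro k
    exact ⟨fun hk => ⟨h20 k hk, h21 k hk⟩, fun hk => le_of_line hT hg (h20 g hg) (h21 g hg) h10 hk⟩

end sub

/-- the regular unipotent elements with the same product of the simple coordinates up to sign -/
theorem conj_reg {s : F} (t z z' : F) (hs : s ≠ 0) : ∃ k : SL, k⁻¹ * um s t z * k = um (-s) t z' := by
  refine ⟨mk !![1, 0, 0; 0, -1, (z + z') / s; 0, 0, -1] (by simp [Matrix.det_fin_three]), ?_⟩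
  rw [mul_assoc, inv_mul_eq_iff_eq_mul]
  apply ext3 <;> rw [mul_apply3, mul_apply3, mk_val] <;> simp [um] <;> field_simp <;> ring

/-- the transvections of `U` with a given axis -/
theorem conj_trans {b z z0 : F} (h : b ≠ 0 ∨ z ≠ 0) (h0 : z0 ≠ 0) : ∃ k : SL, k⁻¹ * um 0 0 z0 * k = um 0 b z := by
  by_cases hz : z = 0
  · have hb : b ≠ 0 := h.resolve_right (fun h => h hz)
    subst hz
    refine ⟨mk !![0, z0 / b, 0; -b / z0, 0, 0; 0, 0, 1] (by simp [Matrix.det_fin_three]; field_simp), ?_⟩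
    rw [mul_assoc, inv_mul_eq_iff_eq_mul]
    apply ext3 <;> rw [mul_apply3, mul_apply3, mk_val] <;> simp [um] <;> field_simp
  · refine ⟨mk !![z0 / z, 0, 0; -b / z0, z / z0, 0; 0, 0, 1] (by simp [Matrix.det_fin_three]; field_simp), ?_⟩
    rw [mul_assoc, inv_mul_eq_iff_eq_mul]
    apply ext3 <;> rw [mul_apply3, mul_apply3, mk_val] <;> simp [um] <;> field_simp <;> ring

section core

variable [Finite F]

theorem mem_U {u : Matrix.ProjectiveSpecialLinearGroup (Fin 3) F} :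
    u ∈ (upper 3 F).map pr ↔ ∃ s t z, u = pr (um s t z) := by
  constructor
  · rintro ⟨g, hg, rfl⟩
    obtain ⟨s, t, z, rfl⟩ := mem_upper_iff.1 hg
    exact ⟨s, t, z, rfl⟩
  · rintro ⟨s, t, z, rfl⟩
    exact ⟨_, mem_upper_iff.2 ⟨s, t, z, rfl⟩, rfl⟩

theorem pr_um_inj {s t z s' t' z' : F} (h : pr (um s t z : SL) = pr (um s' t' z')) : s = s' ∧ t = t' ∧ z = z' := by
  have h1 := pr_injOn_upper (mem_upper_iff.2 ⟨s, t, z, rfl⟩) (mem_upper_iff.2 ⟨s', t', z', rfl⟩) h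
  have h2 : (um s t z : SL).1 = (um s' t' z' : SL).1 := congrArg Subtype.val h1
  have h01 := congrFun (congrFun h2 0) 1
  have h12 := congrFun (congrFun h2 1) 2
  have h02 := congrFun (congrFun h2 0) 2
  simp [um] at h01 h12 h02
  exact ⟨h01, h12, h02⟩

theorem entry_of_mem {g : SL} (h : pr g ∈ (upper 3 F).map pr) : g.1 1 0 = 0 ∧ g.1 2 1 = 0 := by
  obtain ⟨s, t, z, h⟩ := mem_U.1 h
  obtain ⟨c, hc⟩ := exists_smul_of_pr_eq h.symm
  constructor
  · rw [hc]; simp [um]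
  · rw [hc]; simp [um]

theorem core_point {s z : F} {g : SL} (hg : IsP g) : pr (g * um s 0 z * g⁻¹) ∈ (upper 3 F).map pr := by
  have hd := det3 g
  obtain ⟨h10, h20⟩ := hg
  rw [h10, h20] at hd
  refine mem_U.2 ⟨g.1 0 0 * g.1 0 0 * (s * g.1 2 2 - z * g.1 2 1), 0, g.1 0 0 * g.1 0 0 * (z * g.1 1 1 - s * g.1 1 2), ?_⟩
  congr 1
  rw [mul_inv_eq_iff_eq_mul]
  apply ext3
  all_goals
    rw [mul_apply3]
    first | rw [um_mul0] | rw [um_mul1] | rw [um_mul2]
    simp [um, h10, h20]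
  · linear_combination (-g.1 0 0 * s) * hd
  · linear_combination (-g.1 0 0 * z) * hd

theorem core_line {t z : F} {g : SL} (hg : IsL g) : pr (g * um 0 t z * g⁻¹) ∈ (upper 3 F).map pr := by
  have hd := det3 g
  obtain ⟨h20, h21⟩ := hg
  rw [h20, h21] at hd
  refine mem_U.2 ⟨0, (g.1 0 0 * g.1 1 1 - g.1 0 1 * g.1 1 0) * (g.1 1 0 * z + g.1 1 1 * t),
    (g.1 0 0 * g.1 1 1 - g.1 0 1 * g.1 1 0) * (g.1 0 0 * z + g.1 0 1 * t), ?_⟩
  congr 1
  rw [mul_inv_eq_iff_eq_mul]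
  apply ext3
  all_goals
    rw [mul_apply3]
    first | rw [um_mul0] | rw [um_mul1] | rw [um_mul2]
    simp [um, h20, h21]
  · linear_combination (-(g.1 0 0 * z + g.1 0 1 * t)) * hd
  · linear_combination (-(g.1 1 0 * z + g.1 1 1 * t)) * hd

/-- a point stabiliser element -/
def gP (F : Type*) [Field F] : Matrix.SpecialLinearGroup (Fin 3) F :=
  mk !![1, 0, 0; 0, 0, -1; 0, 1, 0] (by simp [Matrix.det_fin_three])

/-- a line stabiliser element -/
def gL (F : Type*) [Field F] : Matrix.SpecialLinearGroup (Fin 3) F :=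
  mk !![0, -1, 0; 1, 0, 0; 0, 0, 1] (by simp [Matrix.det_fin_three])

theorem isP_gP : IsP (gP F) := by simp [IsP, gP, mk_val]

theorem isL_gL : IsL (gL F) := by simp [IsL, gL, mk_val]

theorem eq_zero_of_point {s t z : F} (h : pr (gP F * um s t z * (gP F)⁻¹) ∈ (upper 3 F).map pr) : t = 0 := by
  have h1 := (entry_of_mem h).2
  rw [mul_apply3, mul_apply3, mul_apply3, mul_apply3, inv3] at h1
  simpa [gP, mk_val, um] using h1

theorem eq_zero_of_line {s t z : F} (h : pr (gL F * um s t z * (gL F)⁻¹) ∈ (upper 3 F).map pr) : s = 0 := by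
  have h1 := (entry_of_mem h).1
  rw [mul_apply3, mul_apply3, mul_apply3, mul_apply3, inv3] at h1
  simpa [gL, mk_val, um] using h1

/-- upper triangular elements normalise `U` -/
theorem mem_normalizer_of_isT {g : SL} (hg : IsT g) :
    pr g ∈ normalizer (((upper 3 F).map pr : Subgroup (Matrix.ProjectiveSpecialLinearGroup (Fin 3) F)) : Set _) := by
  have key : ∀ g : SL, IsT g → ∀ u ∈ (upper 3 F).map pr, pr g * u * (pr g)⁻¹ ∈ (upper 3 F).map pr := by
    rintro g ⟨h10, h20, h21⟩ u hu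
    obtain ⟨s, t, z, rfl⟩ := mem_U.1 hu
    have e : um s t z = um s 0 z * um 0 t (-(s * t)) := by
      rw [um_mul]; congr 1 <;> ring
    rw [e, map_mul]
    have h1 := core_point (s := s) (z := z) (g := g) ⟨h10, h20⟩
    have h2 := core_line (t := t) (z := -(s * t)) (g := g) ⟨h20, h21⟩
    rw [map_mul, map_mul, map_inv] at h1 h2
    have h3 := mul_mem h1 h2
    have e2 : pr g * pr (um s 0 z) * (pr g)⁻¹ * (pr g * pr (um 0 t (-(s * t))) * (pr g)⁻¹) =
        pr g * (pr (um s 0 z) * pr (um 0 t (-(s * t)))) * (pr g)⁻¹ := by group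
    rwa [e2] at h3
  have hinv : IsT g⁻¹ := by
    obtain ⟨h10, h20, h21⟩ := hg
    refine ⟨?_, ?_, ?_⟩ <;> rw [inv3] <;> simp [h10, h20, h21]
  rw [mem_normalizer_iff]
  intro u
  refine ⟨fun hu => key g hg u hu, fun hu => ?_⟩
  have h1 := key g⁻¹ hinv _ hu
  rw [map_inv] at h1
  have e : (pr g)⁻¹ * (pr g * u * (pr g)⁻¹) * (pr g)⁻¹⁻¹ = u := by group
  rwa [e] at h1

end core

end Cfsg.Agent.H265.LQ
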