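import Cfsg.Agent.H544.LQ.Defs
import Cfsg.Agent.H265.LQ.SLThree

/-!
# Latin automorphisms of `PSL₃(F)` swapping the two maximal parabolic subgroups (helper265, task LQ-A2 of S4114)

`fix_eq_one` : such an automorphism, fixing the Borel subgroup `N(U)`, has no fixed point `≠ 1` in `U`.
-/

set_option autoImplicit false
set_option linter.unusedSectionVars false

namespace Cfsg.Agent.H265.LQ

open Matrix Subgroup
open Cfsg.Agent.ClassicalGeometry.AutPSL.Root
open Cfsg.Agent.ClassicalGeometry.AutPSL.SylowU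
open Cfsg.Agent.H544.LQ Cfsg.Agent.H459.Gallery

section gen

variable {G : Type*} [Group G]

/-- a fixed element `≠ 1` is not conjugate to a commutator `g⁻¹ x(g)` -/
theorem lat_conj {x : MulAut G} (h : Lat x) {c g k : G} (hc : x c = c) (hg : g⁻¹ * x g = k⁻¹ * c * k) : c = 1 := by
  refine h c k⁻¹ (g * k⁻¹) hc ?_
  have h1 : (g * k⁻¹)⁻¹ * x (g * k⁻¹) = k * (g⁻¹ * x g) * x k⁻¹ := by
    rw [map_mul]; group
  rw [h1, hg]
  group

theorem lat_cx [Finite G] {x : MulAut G} (h : Lat x) (g : G) : Lat (cx x g) := by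
  intro c a b hc hab
  rw [cx_apply] at hc hab
  rw [cx_apply] at hab
  have h1 : g * c * g⁻¹ = 1 := by
    refine h (g * c * g⁻¹) (g * a * g⁻¹) (g * b * g⁻¹) ?_ ?_
    · have h2 : x (g * c * g⁻¹) = g * (g⁻¹ * x (g * c * g⁻¹) * g) * g⁻¹ := by group
      rw [h2, hc]
    · have h2 : g * c * g⁻¹ * ((g * a * g⁻¹)⁻¹ * x (g * a * g⁻¹)) =
          g * (c * (a⁻¹ * (g⁻¹ * x (g * a * g⁻¹) * g))) * g⁻¹ := by group
      rw [h2, hab]
      group
  have h2 : c = g⁻¹ * (g * c * g⁻¹) * g := by group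
  rw [h2, h1]
  group

end gen

variable {F : Type*} [Field F] [Fintype F]

local notation "K3" => Matrix.ProjectiveSpecialLinearGroup (Fin 3) F

/-- the unitriangular subgroup -/
def U0 (F : Type*) [Field F] [Fintype F] : Subgroup (Matrix.ProjectiveSpecialLinearGroup (Fin 3) F) :=
  (upper 3 F).map pr

/-- the computation in `U` -/
theorem main_aux {x : MulAut K3} (hx : Lat x) (hP : ∀ s z : F, ∃ t' z', x (pr (um s 0 z)) = pr (um 0 t' z'))
    (hL : ∀ t z : F, ∃ s' z', x (pr (um 0 t z)) = pr (um s' 0 z')) {u : K3} (hu : u ∈ U0 F) (hxu : x u = u) :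
    u = 1 := by
  choose ψ ζ₁ h₁ using fun s => hP s 0
  choose φ ζ₂ h₂ using fun t => hL t 0
  have hZ : ∀ z, ∃ z', x (pr (um 0 0 z)) = pr (um 0 0 z') := by
    intro z
    obtain ⟨t', z', h⟩ := hP 0 z
    obtain ⟨s'', z'', h'⟩ := hL 0 z
    obtain ⟨-, h3, -⟩ := pr_um_inj (h.symm.trans h')
    exact ⟨z', by rw [h, h3]⟩
  have hx3 : ∀ s t z, ∃ z', x (pr (um s t z)) = pr (um (φ t) (ψ s) z') := by
    intro s t z
    obtain ⟨z3, h3⟩ := hZ (z - s * t)
    refine ⟨ζ₁ s + ζ₂ t + z3, ?_⟩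
    have e : um s t z = um s 0 0 * um 0 t 0 * um 0 0 (z - s * t) := by
      rw [um_mul, um_mul]; congr 1 <;> ring
    rw [e, map_mul, map_mul, map_mul, map_mul, h₁, h₂, h3, ← map_mul, ← map_mul, um_mul, um_mul]
    congr 2 <;> ring
  have h00 : ψ 0 = 0 := by
    have h3 := h₁ 0
    rw [um_zero, map_one, map_one, ← map_one pr, ← um_zero] at h3
    exact (pr_um_inj h3).2.1.symm
  -- fixed elements lie in the centre
  have hst : ∀ s t z, x (pr (um s t z)) = pr (um s t z) → s = 0 ∧ t = 0 := by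
    intro s t z h
    obtain ⟨z', h3⟩ := hx3 s t z
    obtain ⟨h4, h5, -⟩ := pr_um_inj (h.symm.trans h3)
    have hs : s = 0 := by
      by_contra hs
      obtain ⟨k, hk⟩ := conj_reg t z (ζ₁ s - s * t) hs
      have h6 : pr (um s t z) = 1 := by
        refine lat_conj hx (g := pr (um s 0 0)) (k := pr k) h ?_
        rw [h₁, ← map_inv, ← map_inv, ← map_mul, ← map_mul, ← map_mul, hk, um_inv, um_mul, ← h5]
        congr 2 <;> ring
      rw [← map_one pr, ← um_zero] at h6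
      exact hs (pr_um_inj h6).1
    refine ⟨hs, ?_⟩
    rw [h5, hs, h00]
  obtain ⟨s, t, z, rfl⟩ := mem_U.1 hu
  obtain ⟨rfl, rfl⟩ := hst s t z hxu
  by_contra hne
  have hz : z ≠ 0 := by
    rintro rfl
    rw [um_zero, map_one] at hne
    exact hne rfl
  obtain ⟨z', h3⟩ := hx3 (φ 1) 1 0
  have hg : (pr (um (φ 1) 1 0))⁻¹ * x (pr (um (φ 1) 1 0)) = pr (um 0 (ψ (φ 1) - 1) (φ 1 * 1 - 0 + z' + -φ 1 * ψ (φ 1))) := by
    rw [h3, ← map_inv, ← map_mul, um_inv, um_mul]
    congr 2 <;> ring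
  by_cases hb : ψ (φ 1) - 1 ≠ 0 ∨ φ 1 * 1 - 0 + z' + -φ 1 * ψ (φ 1) ≠ 0
  · obtain ⟨k, hk⟩ := conj_trans hb hz
    exact hne (lat_conj hx (g := pr (um (φ 1) 1 0)) (k := pr k) hxu (by rw [hg, ← hk, map_mul, map_mul, map_inv]))
  · push Not at hb
    rw [hb.1, hb.2, um_zero, map_one, inv_mul_eq_one] at hg
    exact one_ne_zero (hst _ _ _ hg.symm).2

variable {M M' : Subgroup (Matrix.ProjectiveSpecialLinearGroup (Fin 3) F)}

theorem overgroup_psl (hM : normalizer (U0 F : Set K3) < M) (htop : M ≠ ⊤) :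
    (∀ g, pr g ∈ M ↔ IsP g) ∨ (∀ g, pr g ∈ M ↔ IsL g) := by
  have h1 := overgroup (M := M.comap pr) (fun g hg => hM.le (mem_normalizer_of_isT hg)) ?_ ?_
  · exact h1
  · by_contra hcon
    push Not at hcon
    apply hM.not_ge
    intro k hk
    obtain ⟨g, rfl⟩ := pr_surjective k
    exact mem_normalizer_of_isT (hcon g hk)
  · by_contra hcon
    push Not at hcon
    apply htop
    rw [eq_top_iff]
    intro k _
    obtain ⟨g, rfl⟩ := pr_surjective k
    exact hcon g

theorem eq_of_iff {Q : Matrix.SpecialLinearGroup (Fin 3) F → Prop} (h : ∀ g, pr g ∈ M ↔ Q g) (h' : ∀ g, pr g ∈ M' ↔ Q g) :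
    M = M' := by
  ext k
  obtain ⟨g, rfl⟩ := pr_surjective k
  rw [h, h']

theorem base {x : MulAut K3} {p : ℕ} [Fact p.Prime] [CharP F p] (hx : Lat x)
    (hB : Iv x (normalizer (U0 F : Set K3))) (hM : normalizer (U0 F : Set K3) < M) (htop : M ≠ ⊤) (hn : ¬ Iv x M)
    {u : K3} (hu : u ∈ U0 F) (hxu : x u = u) : u = 1 := by
  have hUx : ∀ u ∈ U0 F, x u ∈ U0 F := by
    obtain ⟨S, hS⟩ := exists_sylow (F := F) 3 p
    change (S : Subgroup K3) = U0 F at hS
    intro u hu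
    have hpg : IsPGroup p ((U0 F).map x.toMonoidHom) := by
      rw [← hS]
      exact S.2.map _
    have h1 := hpg.inf_normalizer_sylow S
    rw [hS] at h1
    have hset : ((S : Subgroup K3) : Set K3) = (U0 F : Set K3) := congrArg (fun A : Subgroup K3 => (A : Set K3)) hS
    have h2 : x u ∈ (U0 F).map x.toMonoidHom ⊓ normalizer (U0 F : Set K3) :=
      ⟨⟨u, hu, rfl⟩, hB u (le_normalizer hu)⟩
    have h3 : (U0 F).map x.toMonoidHom ⊓ normalizer (U0 F : Set K3) = (U0 F).map x.toMonoidHom ⊓ U0 F := by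
      rw [← hset]
      exact h1
    rw [h3] at h2
    exact h2.2
  have hmap : ∀ M : Subgroup K3, normalizer (U0 F : Set K3) < M → M ≠ ⊤ →
      normalizer (U0 F : Set K3) < M.map x.toMonoidHom ∧ M.map x.toMonoidHom ≠ ⊤ := by
    intro M hM htop
    constructor
    · rw [← hB.map_eq]
      exact (Subgroup.map_lt_map_iff_of_injective x.injective).2 hM
    · intro h
      apply htop
      rw [← Subgroup.map_top_of_surjective x.toMonoidHom x.surjective] at h
      exact Subgroup.map_injective x.injective h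
  obtain ⟨hM1, htop1⟩ := hmap M hM htop
  obtain ⟨hM2, htop2⟩ := hmap _ hM1 htop1
  have hne : M ≠ M.map x.toMonoidHom := fun h => hn (iv_of_map_eq h.symm)
  have hne' : M.map x.toMonoidHom ≠ (M.map x.toMonoidHom).map x.toMonoidHom := fun h =>
    hne (Subgroup.map_injective x.injective h)
  -- the two steps
  have stepP : ∀ M : Subgroup K3, (∀ g, pr g ∈ M ↔ IsP g) → (∀ g, pr g ∈ M.map x.toMonoidHom ↔ IsL g) →
      ∀ s z : F, ∃ t' z', x (pr (um s 0 z)) = pr (um 0 t' z') := by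
    intro M h h' s z
    obtain ⟨s', t', z', h3⟩ := mem_U.1 (hUx _ (mem_U.2 ⟨s, 0, z, rfl⟩))
    obtain ⟨k, hk, hk'⟩ := (h' (gL F)).2 isL_gL
    change x k = pr (gL F) at hk'
    obtain ⟨g, rfl⟩ := pr_surjective k
    have h4 := hUx _ (core_point (s := s) (z := z) ((h g).1 hk))
    rw [map_mul, map_mul, map_inv, map_mul, map_mul, map_inv, hk', h3, ← map_inv, ← map_mul, ← map_mul] at h4
    have h5 := eq_zero_of_line h4
    exact ⟨t', z', by rw [h3, h5]⟩
  have stepL : ∀ M : Subgroup K3, (∀ g, pr g ∈ M ↔ IsL g) → (∀ g, pr g ∈ M.map x.toMonoidHom ↔ IsP g) →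
      ∀ t z : F, ∃ s' z', x (pr (um 0 t z)) = pr (um s' 0 z') := by
    intro M h h' t z
    obtain ⟨s', t', z', h3⟩ := mem_U.1 (hUx _ (mem_U.2 ⟨0, t, z, rfl⟩))
    obtain ⟨k, hk, hk'⟩ := (h' (gP F)).2 isP_gP
    change x k = pr (gP F) at hk'
    obtain ⟨g, rfl⟩ := pr_surjective k
    have h4 := hUx _ (core_line (t := t) (z := z) ((h g).1 hk))
    rw [map_mul, map_mul, map_inv, map_mul, map_mul, map_inv, hk', h3, ← map_inv, ← map_mul, ← map_mul] at h4
    have h5 := eq_zero_of_point h4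
    exact ⟨s', z', by rw [h3, h5]⟩
  rcases overgroup_psl hM htop with h0 | h0 <;> rcases overgroup_psl hM1 htop1 with h1 | h1 <;>
    rcases overgroup_psl hM2 htop2 with h2 | h2
  · exact absurd (eq_of_iff h0 h1) hne
  · exact absurd (eq_of_iff h0 h1) hne
  · exact main_aux hx (stepP _ h0 h1) (stepL _ h1 h2) hu hxu
  · exact absurd (eq_of_iff h1 h2) hne'
  · exact absurd (eq_of_iff h1 h2) hne'
  · exact main_aux hx (stepP _ h1 h2) (stepL _ h0 h1) hu hxu
  · exact absurd (eq_of_iff h0 h1) hne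
  · exact absurd (eq_of_iff h0 h1) hne

/-- **Task LQ-A2**: a Latin automorphism of `PSL₃(F)` fixing `N(U)` and swapping the two maximal parabolic subgroups
containing it acts fixed point freely on `U`. -/
theorem fix_eq_one {p : ℕ} [Fact p.Prime] [CharP F p] (U : Sylow p K3) {x : MulAut K3} (hx : Hyp x)
    (hB : Iv x (normalizer ((U : Subgroup K3) : Set K3)))
    (hsw : ∃ M : Subgroup K3, normalizer ((U : Subgroup K3) : Set K3) < M ∧ M ≠ ⊤ ∧ ¬ Iv x M) :
    ∀ u ∈ (U : Subgroup K3), x u = u → u = 1 := by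
  obtain ⟨M, hM, htop, hn⟩ := hsw
  obtain ⟨S, hS⟩ := exists_sylow (F := F) 3 p
  change (S : Subgroup K3) = U0 F at hS
  obtain ⟨g, hg⟩ := MulAction.exists_smul_eq K3 S U
  have hUS : (U : Subgroup K3) = (U0 F).map (MulAut.conj g).toMonoidHom := by
    rw [← hg, ← hS]
    rfl
  have hmem : ∀ a, g * a * g⁻¹ ∈ (U : Subgroup K3) ↔ a ∈ U0 F := by
    intro a
    rw [hUS]
    constructor
    · rintro ⟨b, hb, hab⟩
      have hab' : g * b * g⁻¹ = g * a * g⁻¹ := hab
      rwa [mul_left_cancel (mul_right_cancel hab')] at hb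
    · intro ha
      exact ⟨a, ha, rfl⟩
  have hnor : ∀ a, g * a * g⁻¹ ∈ normalizer ((U : Subgroup K3) : Set K3) ↔ a ∈ normalizer (U0 F : Set K3) := by
    intro a
    rw [mem_normalizer_iff, mem_normalizer_iff]
    constructor
    · intro h k
      have h1 := h (g * k * g⁻¹)
      have e : g * a * g⁻¹ * (g * k * g⁻¹) * (g * a * g⁻¹)⁻¹ = g * (a * k * a⁻¹) * g⁻¹ := by group
      rwa [e, hmem, hmem] at h1
    · intro h k
      have h1 := h (g⁻¹ * k * g)
      have e1 : g * (g⁻¹ * k * g) * g⁻¹ = k := by group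
      have e : g * (a * (g⁻¹ * k * g) * a⁻¹) * g⁻¹ = g * a * g⁻¹ * k * (g * a * g⁻¹)⁻¹ := by group
      rw [← hmem, ← hmem, e1, e] at h1
      exact h1
  have hB' : Iv (cx x g) (normalizer (U0 F : Set K3)) := by
    intro a ha
    rw [cx_apply, ← hnor]
    have e : g * (g⁻¹ * x (g * a * g⁻¹) * g) * g⁻¹ = x (g * a * g⁻¹) := by group
    rw [e]
    exact hB _ ((hnor a).2 ha)
  set M' : Subgroup K3 := M.comap (MulAut.conj g).toMonoidHom with hM'
  have hmM : ∀ a, a ∈ M' ↔ g * a * g⁻¹ ∈ M := fun a => Iff.rfl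
  have h1 : normalizer (U0 F : Set K3) < M' := by
    refine lt_of_le_of_ne (fun a ha => hM.le ((hnor a).2 ha)) ?_
    intro h
    apply hM.ne
    ext k
    have e : g * (g⁻¹ * k * g) * g⁻¹ = k := by group
    rw [← e, hnor, h, hmM]
  have h2 : M' ≠ ⊤ := by
    intro h
    apply htop
    rw [eq_top_iff]
    intro k _
    have h3 : g⁻¹ * k * g ∈ M' := by rw [h]; trivial
    rw [hmM] at h3
    have e : g * (g⁻¹ * k * g) * g⁻¹ = k := by group
    rwa [e] at h3
  have h3 : ¬ Iv (cx x g) M' := by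
    intro h
    apply hn
    intro k hk
    have e : g * (g⁻¹ * k * g) * g⁻¹ = k := by group
    have h4 := h (g⁻¹ * k * g) (by rw [hmM, e]; exact hk)
    rw [hmM, cx_apply, e] at h4
    have e2 : g * (g⁻¹ * x k * g) * g⁻¹ = x k := by group
    rwa [e2] at h4
  intro u hu hxu
  have e : g * (g⁻¹ * u * g) * g⁻¹ = u := by group
  have h4 : g⁻¹ * u * g = 1 := by
    refine base (p := p) (lat_cx hx.lat g) hB' h1 h2 h3 ?_ ?_
    · rw [← hmem, e]; exact hu
    · rw [cx_apply, e, hxu]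
  rw [← e, h4]
  group

end Cfsg.Agent.H265.LQ
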